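import Mathlib
import Cfsg.Agent.Lib.Helper1.SZInternal
import Cfsg.Agent.Lib.Helper27.BG36LemmaCompl
import Cfsg.Agent.Lib.Helper23.BG36.Defs2
import Cfsg.Agent.S0025

set_option autoImplicit false

namespace Cfsg.Agent.Lib.Helper85.BG36

open Pointwise Cfsg.Agent.Lib.Helper1

universe u

/-- elements of `A ⊔ B` are products when `B` normalizes `A`. -/
theorem mem_sup_of_le_normalizer {G : Type u} [Group G] {A B : Subgroup G}
    (h : B ≤ Subgroup.normalizer (A : Set G)) {x : G} (hx : x ∈ A ⊔ B) :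
    ∃ a ∈ A, ∃ b ∈ B, x = a * b := by
  have h1 : x ∈ ((A ⊔ B : Subgroup G) : Set G) := hx
  rw [Subgroup.coe_mul_of_right_le_normalizer_left A B h] at h1
  obtain ⟨a, ha, b, hb, rfl⟩ := h1
  exact ⟨a, ha, b, hb, rfl⟩

/-- an element normalizing two subgroups normalizes their join. -/
theorem mem_normalizer_sup {G : Type u} [Group G] {A B : Subgroup G} {g : G}
    (hA : g ∈ Subgroup.normalizer (A : Set G)) (hB : g ∈ Subgroup.normalizer (B : Set G)) :
    g ∈ Subgroup.normalizer ((A ⊔ B : Subgroup G) : Set G) := by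
  rw [Subgroup.mem_normalizer_iff_map_conj_eq] at hA hB ⊢
  rw [Subgroup.map_sup, hA, hB]

/-- an element normalizing two subgroups normalizes their meet. -/
theorem mem_normalizer_inf {G : Type u} [Group G] {A B : Subgroup G} {g : G}
    (hA : g ∈ Subgroup.normalizer (A : Set G)) (hB : g ∈ Subgroup.normalizer (B : Set G)) :
    g ∈ Subgroup.normalizer ((A ⊓ B : Subgroup G) : Set G) := by
  have hA' := Subgroup.mem_normalizer_iff.mp hA
  have hB' := Subgroup.mem_normalizer_iff.mp hB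
  apply Subgroup.mem_normalizer_iff.mpr
  intro x
  constructor
  · intro hx
    exact ⟨(hA' x).mp hx.1, (hB' x).mp hx.2⟩
  · intro hx
    exact ⟨(hA' x).mpr hx.1, (hB' x).mpr hx.2⟩

/-- if `x ^ m ∈ K`, `x ^ n = 1` and `m`, `n` are coprime then `x ∈ K`. -/
theorem mem_of_pow_mem_of_coprime {G : Type u} [Group G] (K : Subgroup G) {x : G} {m n : ℕ}
    (hm : x ^ m ∈ K) (hn : x ^ n = 1) (hmn : Nat.Coprime m n) : x ∈ K := by
  have h1 : (x ^ m) ^ (Nat.gcdA m n) * (x ^ n) ^ (Nat.gcdB m n) = x := by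
    rw [← zpow_natCast, ← zpow_natCast, ← zpow_mul, ← zpow_mul, ← zpow_add,
      ← Nat.gcd_eq_gcd_ab, hmn]
    simp
  rw [← h1, hn, one_zpow, mul_one]
  exact K.zpow_mem hm _

/-- cardinality times relative index. -/
theorem card_mul_relIndex_of_le {G : Type u} [Group G] {A B : Subgroup G} (h : A ≤ B) :
    Nat.card A * A.relIndex B = Nat.card B := by
  have := Subgroup.relIndex_mul_relIndex ⊥ A B bot_le h
  rwa [Subgroup.relIndex_bot_left, Subgroup.relIndex_bot_left] at this

/-- **P8 (structure and endgame)** of the S1444 project. -/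
theorem lemmaEnd : Cfsg.Agent.Lib.Helper23.BG36.LemmaEnd.{u} := by
  intro X _ _ _ p hp H R V L B Q hRH hcop hVL hLB hBH hnV hnL hnB hV hVLcop hLBk hBHcop hQL hVQ
    hVQL hRQ hCVQ
  haveI : Fact p.Prime := ⟨hp⟩
  obtain ⟨k, hk⟩ := hLBk
  set N : Subgroup X := H ⊓ Subgroup.normalizer (Q : Set X) with hN
  have hHnV : H ≤ Subgroup.normalizer (V : Set X) := le_sup_left.trans hnV
  have hRnV : R ≤ Subgroup.normalizer (V : Set X) := le_sup_right.trans hnV
  have hHnL : H ≤ Subgroup.normalizer (L : Set X) := le_sup_left.trans hnL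
  have hHnB : H ≤ Subgroup.normalizer (B : Set X) := le_sup_left.trans hnB
  have hLH : L ≤ H := hLB.trans hBH
  have hVH : V ≤ H := hVL.trans hLH
  have hQH : Q ≤ H := hQL.trans hLH
  have hQN : Q ≤ N := le_inf hQH Subgroup.le_normalizer
  have hNH : N ≤ H := inf_le_left
  have hQnV : Q ≤ Subgroup.normalizer (V : Set X) := hQH.trans hHnV
  have conjV : ∀ h ∈ H, ∀ v ∈ V, h * v * h⁻¹ ∈ V := fun h hh v hv =>
    (Subgroup.mem_normalizer_iff.mp (hHnV hh) v).mp hv
  -- (ii) `V ⊓ N = ⊥`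
  have hVN : V ⊓ N = ⊥ := by
    rw [eq_bot_iff]
    intro v hv
    obtain ⟨hvV, hvN⟩ := hv
    have hvC : v ∈ V ⊓ Subgroup.centralizer (Q : Set X) := by
      refine ⟨hvV, ?_⟩
      apply Subgroup.mem_centralizer_iff.mpr
      intro q hq
      have h1 : v * q * v⁻¹ * q⁻¹ ∈ V := by
        have : v * q * v⁻¹ * q⁻¹ = v * (q * v⁻¹ * q⁻¹) := by group
        rw [this]
        exact V.mul_mem hvV (conjV q (hQH hq) _ (V.inv_mem hvV))
      have h2 : v * q * v⁻¹ * q⁻¹ ∈ Q := by
        have := (Subgroup.mem_normalizer_iff.mp hvN.2 q).mp hq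
        exact Q.mul_mem this (Q.inv_mem hq)
      have h3 : v * q * v⁻¹ * q⁻¹ ∈ V ⊓ Q := ⟨h1, h2⟩
      rw [hVQ, Subgroup.mem_bot] at h3
      have h4 : v * q = (v * q * v⁻¹ * q⁻¹) * (q * v) := by group
      rw [h4, h3, one_mul]
    rw [hCVQ] at hvC
    exact hvC
  -- orders
  have hLcard : Nat.card L = Nat.card V * Nat.card Q := by
    have := Cfsg.Agent.Lib.Helper27.BG36.card_sup_mul_card_inf_nz V Q hQnV
    rwa [hVQ, hVQL, Subgroup.card_bot, mul_one] at this
  have hQcard : Nat.card Q = V.relIndex L := by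
    have h1 := card_mul_relIndex_of_le hVL
    rw [hLcard] at h1
    exact (Nat.eq_of_mul_eq_mul_left Nat.card_pos h1).symm
  have hQp : (Nat.card Q).Coprime p := hQcard ▸ hVLcop
  have hcopQV : (Nat.card Q).Coprime (Nat.card V) := by
    obtain ⟨a, ha⟩ := IsPGroup.iff_card.mp hV
    rw [ha]
    exact Nat.Coprime.pow_right a hQp
  -- (i) Frattini
  have hfrat : ∀ h ∈ H, ∃ v ∈ V, ∃ n ∈ N, h = v * n := by
    intro h hh
    have hA₁ : MulAut.conj h • Q ≤ V ⊔ Q := by
      rw [hVQL]
      intro x hx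
      rw [mem_conj_smul] at hx
      have := (Subgroup.mem_normalizer_iff.mp (hHnL hh) (h⁻¹ * x * h)).mp (hQL hx)
      have e : h * (h⁻¹ * x * h) * h⁻¹ = x := by group
      rwa [e] at this
    obtain ⟨v, hv, hconj⟩ := sz_conj_internal V Q (MulAut.conj h • Q) hQnV hcopQV
      (Or.inr inferInstance) hA₁ (card_conj_smul Q h)
    have hvh : v * h ∈ Subgroup.normalizer (Q : Set X) := by
      apply Cfsg.Agent.Lib.Helper27.BG36.mem_normalizer_of_conj_smul_eq
      rw [map_mul, mul_smul]; exact hconj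
    exact ⟨v⁻¹, V.inv_mem hv, v * h, ⟨H.mul_mem (hVH hv) hh, hvh⟩, by group⟩
  -- (iii) an `R`-invariant Sylow `p`-subgroup of `N`
  have hRN : R ≤ Subgroup.normalizer (N : Set X) := fun r hr =>
    mem_normalizer_inf (hRH hr) (Subgroup.le_normalizer (hRQ hr))
  have hcopRN : (Nat.card R).Coprime (Nat.card N) := by
    have : Nat.card N ∣ Nat.card H := Subgroup.card_dvd_of_le hNH
    exact (Nat.Coprime.coprime_dvd_left this hcop).symm
  have hbot : R ≤ Subgroup.normalizer (((⊥ : Subgroup X)) : Set X) := by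
    intro r _
    apply Subgroup.mem_normalizer_iff.mpr
    intro x
    simp [Subgroup.mem_bot]
  obtain ⟨P, -, hRT⟩ := Cfsg.Agent.S0025.result R N hRN hcopRN (Or.inr inferInstance) p
    (⊥ : Subgroup X) bot_le IsPGroup.of_bot hbot
  set T : Subgroup X := (P : Subgroup N).map N.subtype with hTdef
  have hTN : T ≤ N := Subgroup.map_subtype_le _
  have hT : IsPGroup p T := P.isPGroup'.map _
  have hTidx : (T.relIndex N).Coprime p := by
    have h1 : T.subgroupOf N = (P : Subgroup N) := by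
      rw [hTdef]
      ext x
      simp [Subgroup.mem_subgroupOf]
    have h2 : T.relIndex N = (P : Subgroup N).index := by
      unfold Subgroup.relIndex
      rw [h1]
    rw [h2]
    exact ((Nat.Prime.coprime_iff_not_dvd hp).mpr P.not_dvd_index).symm
  have hTpow : ∀ t ∈ T, ∃ a : ℕ, t ^ (p ^ a) = 1 := by
    intro t ht
    obtain ⟨a, ha⟩ := hT ⟨t, ht⟩
    exact ⟨a, by simpa using congrArg Subtype.val ha⟩
  refine ⟨T, hTN, hT, hRT, hVN, hfrat, ?_⟩
  -- (iv) endgame
  intro hTC
  have hTB : T ≤ B := by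
    intro t ht
    have htH : t ∈ H := hNH (hTN ht)
    have h1 : t ^ (B.relIndex H) ∈ B := by
      haveI : (B.subgroupOf H).Normal :=
        (Subgroup.normal_subgroupOf_iff_le_normalizer hBH).mpr hHnB
      have := Subgroup.pow_index_mem (B.subgroupOf H) (⟨t, htH⟩ : H)
      rw [Subgroup.mem_subgroupOf] at this
      simpa [Subgroup.relIndex] using this
    obtain ⟨a, ha⟩ := hTpow t ht
    exact mem_of_pow_mem_of_coprime B h1 ha (Nat.Coprime.pow_right a hBHcop)
  have hNL : ∀ x ∈ N, x ∈ L → x ∈ Q := by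
    intro x hxN hxL
    rw [← hVQL] at hxL
    obtain ⟨v, hv, q, hq, rfl⟩ := mem_sup_of_le_normalizer hQnV hxL
    have hvN : v ∈ N := by
      have : v = (v * q) * q⁻¹ := by group
      rw [this]; exact N.mul_mem hxN (N.inv_mem (hQN hq))
    have : v ∈ V ⊓ N := ⟨hv, hvN⟩
    rw [hVN, Subgroup.mem_bot] at this
    rw [this, one_mul]; exact hq
  set M : Subgroup X := N ⊓ B with hM
  have hMB : M ≤ B := inf_le_right
  have hMN : M ≤ N := inf_le_left
  have hQM : Q ≤ M := le_inf hQN (hQL.trans hLB)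
  have hTM : T ≤ M := le_inf hTN hTB
  have hLM : L ⊓ M = Q := by
    apply le_antisymm
    · intro x hx; exact hNL x (hMN hx.2) hx.1
    · exact le_inf hQL hQM
  have h1 : Q.relIndex M ∣ p ^ k := by
    rw [← hLM, Subgroup.inf_relIndex_right, ← hk]
    haveI : (L.subgroupOf B).Normal :=
      (Subgroup.normal_subgroupOf_iff_le_normalizer hLB).mpr (hBH.trans hHnL)
    have := Subgroup.relIndex_dvd_index_of_normal (L.subgroupOf B) (M.subgroupOf B)
    rwa [Subgroup.relIndex_subgroupOf hMB] at this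
  have h2 : (Q ⊔ T).relIndex M ∣ Q.relIndex M := Subgroup.relIndex_dvd_of_le_left M le_sup_left
  have h3 : (Q ⊔ T).relIndex M ∣ T.relIndex M := Subgroup.relIndex_dvd_of_le_left M le_sup_right
  have h4 : T.relIndex M ∣ T.relIndex N :=
    ⟨M.relIndex N, (Subgroup.relIndex_mul_relIndex T M N hTM hMN).symm⟩
  have h5 : (Q ⊔ T).relIndex M = 1 := by
    have c : (p ^ k).Coprime (T.relIndex N) := Nat.Coprime.pow_left k hTidx.symm
    exact Nat.eq_one_of_dvd_coprimes c (h2.trans h1) (h3.trans h4)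
  have hMQT : M ≤ Q ⊔ T := Subgroup.relIndex_eq_one.mp h5
  have hTnQ : T ≤ Subgroup.normalizer (Q : Set X) := hTN.trans inf_le_right
  have hconjT : ∀ n ∈ N, ∀ t ∈ T, n * t * n⁻¹ ∈ T := by
    intro n hn t ht
    have hxM : n * t * n⁻¹ ∈ M := by
      refine ⟨N.mul_mem (N.mul_mem hn (hTN ht)) (N.inv_mem hn), ?_⟩
      exact (Subgroup.mem_normalizer_iff.mp (hHnB (hNH hn)) t).mp (hTB ht)
    obtain ⟨q, hq, t', ht', hx⟩ := mem_sup_of_le_normalizer hTnQ (hMQT hxM)
    have hcomm : q * t' = t' * q := (Subgroup.mem_centralizer_iff.mp (hTC ht')) q hq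
    obtain ⟨a, ha⟩ := hTpow t ht
    have hxa : (n * t * n⁻¹) ^ (p ^ a) = 1 := by
      rw [conj_pow, ha, mul_one, mul_inv_cancel]
    obtain ⟨b, hb⟩ := hTpow t' ht'
    have hq1 : q ^ (p ^ (a + b)) = 1 := by
      have e1 : (q * t') ^ (p ^ (a + b)) = q ^ (p ^ (a + b)) * t' ^ (p ^ (a + b)) :=
        Commute.mul_pow hcomm _
      have e2 : (q * t') ^ (p ^ (a + b)) = 1 := by
        rw [← hx, pow_add, pow_mul, hxa, one_pow]
      have e3 : t' ^ (p ^ (a + b)) = 1 := by
        rw [pow_add, mul_comm, pow_mul, hb, one_pow]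
      rw [e1, e3, mul_one] at e2; exact e2
    have hq0 : q = 1 := by
      have d1 : orderOf q ∣ p ^ (a + b) := orderOf_dvd_of_pow_eq_one hq1
      have d2 : orderOf q ∣ Nat.card Q := by
        have := orderOf_dvd_natCard (⟨q, hq⟩ : Q)
        rwa [Subgroup.orderOf_mk] at this
      have : orderOf q = 1 :=
        Nat.eq_one_of_dvd_coprimes (Nat.Coprime.pow_left _ hQp.symm) d1 d2
      exact orderOf_eq_one_iff.mp this
    rw [hx, hq0, one_mul]; exact ht'
  have hNT : N ≤ Subgroup.normalizer (T : Set X) := by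
    intro n hn
    apply Subgroup.mem_normalizer_iff.mpr
    intro x
    constructor
    · exact hconjT n hn x
    · intro hx
      have := hconjT n⁻¹ (N.inv_mem hn) _ hx
      have e : n⁻¹ * (n * x * n⁻¹) * n⁻¹⁻¹ = x := by group
      rwa [e] at this
  have hTnV : T ≤ Subgroup.normalizer (V : Set X) := (hTN.trans hNH).trans hHnV
  refine ⟨V ⊔ T, sup_le hVH (hTN.trans hNH), ?_, ?_, ?_⟩
  · apply sup_le
    · intro h hh
      obtain ⟨v, hv, n, hn, rfl⟩ := hfrat h hh
      apply Subgroup.mul_mem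
      · exact Subgroup.le_normalizer ((le_sup_left : V ≤ V ⊔ T) hv)
      · exact mem_normalizer_sup (hHnV (hNH hn)) (hNT hn)
    · intro r hr
      exact mem_normalizer_sup (hRnV hr) (hRT hr)
  · exact IsPGroup.to_sup_of_normal_left' hV hT hTnV
  · have c1 : Nat.card H = Nat.card V * Nat.card N := by
      have hsup : V ⊔ N = H := by
        apply le_antisymm (sup_le hVH hNH)
        intro h hh
        obtain ⟨v, hv, n, hn, rfl⟩ := hfrat h hh
        exact Subgroup.mul_mem_sup hv hn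
      have := Cfsg.Agent.Lib.Helper27.BG36.card_sup_mul_card_inf_nz V N (hNH.trans hHnV)
      rwa [hsup, hVN, Subgroup.card_bot, mul_one] at this
    have c2 : Nat.card (V ⊔ T : Subgroup X) = Nat.card V * Nat.card T := by
      have hVT : V ⊓ T = ⊥ := by
        rw [eq_bot_iff, ← hVN]; exact inf_le_inf_left V hTN
      have := Cfsg.Agent.Lib.Helper27.BG36.card_sup_mul_card_inf_nz V T hTnV
      rwa [hVT, Subgroup.card_bot, mul_one] at this
    have c3 : Nat.card T * T.relIndex N = Nat.card N := card_mul_relIndex_of_le hTN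
    have c4 : Nat.card (V ⊔ T : Subgroup X) * (V ⊔ T).relIndex H = Nat.card H :=
      card_mul_relIndex_of_le (sup_le hVH (hTN.trans hNH))
    have c5 : (V ⊔ T).relIndex H = T.relIndex N := by
      have : Nat.card (V ⊔ T : Subgroup X) * (V ⊔ T).relIndex H =
          Nat.card (V ⊔ T : Subgroup X) * T.relIndex N := by
        rw [c4, c1, c2, ← c3, mul_assoc]
      exact Nat.eq_of_mul_eq_mul_left Nat.card_pos this
    rw [c5]; exact hTidx

end Cfsg.Agent.Lib.Helper85.BG36
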