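import Mathlib
import Cfsg.Agent.Lib.Helper23.BG36.Defs2

set_option autoImplicit false

namespace Cfsg.Agent.Lib.Helper85.BG36X

universe u

/-- in a finite cyclic group, an element killed by the order of `y` is a power of `y`. -/
theorem mem_zpowers_of_pow_orderOf {G : Type u} [Group G] [Finite G] [IsCyclic G] (x y : G)
    (h : x ^ orderOf y = 1) : x ∈ Subgroup.zpowers y := by
  classical
  haveI : Fintype G := Fintype.ofFinite G
  have hn : 0 < orderOf y := orderOf_pos y
  set S : Finset G := Finset.univ.filter (fun a : G => a ^ orderOf y = 1) with hS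
  have hScard : S.card ≤ orderOf y := IsCyclic.card_pow_eq_one_le hn
  set I : Finset G := (Finset.range (orderOf y)).image (fun k => y ^ k) with hI
  have hIcard : I.card = orderOf y := by
    rw [hI, Finset.card_image_of_injOn, Finset.card_range]
    intro a ha b hb hab
    exact pow_injOn_Iio_orderOf (by simpa using ha) (by simpa using hb) hab
  have hIS : I ⊆ S := by
    intro z hz
    rw [hI, Finset.mem_image] at hz
    obtain ⟨k, -, rfl⟩ := hz
    rw [hS, Finset.mem_filter]
    refine ⟨Finset.mem_univ _, ?_⟩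
    rw [← pow_mul, mul_comm, pow_mul, pow_orderOf_eq_one, one_pow]
  have hEq : I = S := Finset.eq_of_subset_of_card_le hIS (by rw [hIcard]; exact hScard)
  have hx : x ∈ S := by rw [hS, Finset.mem_filter]; exact ⟨Finset.mem_univ _, h⟩
  rw [← hEq, hI, Finset.mem_image] at hx
  obtain ⟨k, -, rfl⟩ := hx
  exact Subgroup.npow_mem_zpowers y k

/-- the cyclic subgroups of a finite cyclic `p`-group form a chain. -/
theorem zpowers_chain {G : Type u} [Group G] [Finite G] [IsCyclic G] {p : ℕ} [hp : Fact p.Prime]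
    (hG : IsPGroup p G) (x y : G) : x ∈ Subgroup.zpowers y ∨ y ∈ Subgroup.zpowers x := by
  have key : ∀ z : G, ∃ i : ℕ, orderOf z = p ^ i := by
    intro z
    obtain ⟨k, hk⟩ := hG z
    obtain ⟨i, -, hi⟩ := (Nat.dvd_prime_pow hp.out).mp (orderOf_dvd_of_pow_eq_one hk)
    exact ⟨i, hi⟩
  obtain ⟨i, hi⟩ := key x
  obtain ⟨j, hj⟩ := key y
  rcases le_total i j with h | h
  · left
    apply mem_zpowers_of_pow_orderOf
    rw [hj]
    obtain ⟨d, rfl⟩ := Nat.exists_eq_add_of_le h
    rw [pow_add, pow_mul, ← hi, pow_orderOf_eq_one, one_pow]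
  · right
    apply mem_zpowers_of_pow_orderOf
    rw [hi]
    obtain ⟨d, rfl⟩ := Nat.exists_eq_add_of_le h
    rw [pow_add, pow_mul, ← hj, pow_orderOf_eq_one, one_pow]

/-- **P7** of the S1444 project. -/
theorem lemmaX : Cfsg.Agent.Lib.Helper23.BG36.LemmaX.{u} := by
  intro X _ _ p hp V T C a hV hT hTV hVT hZ hVC hTC hex t ht hat
  obtain ⟨v, hv, hv1, hav⟩ := hex
  haveI : Fact p.Prime := ⟨hp⟩
  haveI := hZ
  have hVTp : IsPGroup p (V ⊔ T : Subgroup X) := IsPGroup.to_sup_of_normal_left' hV hT hTV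
  set D : Subgroup X := (V ⊔ T) ⊓ C with hD
  have hDp : IsPGroup p D := hVTp.to_le inf_le_left
  have hDC : IsPGroup p (D.subgroupOf C) := hDp.comap_subtype
  haveI : IsCyclic (D.subgroupOf C) := IsPGroup.isCyclic_of_isZGroup hDC
  have hvC : v ∈ C := hVC ⟨hv, Subgroup.mem_centralizer_iff.mpr (fun h hh => by
    rw [Set.mem_singleton_iff] at hh; rw [hh]; exact hav)⟩
  have htC : t ∈ C := hTC ⟨ht, Subgroup.mem_centralizer_iff.mpr (fun h hh => by
    rw [Set.mem_singleton_iff] at hh; rw [hh]; exact hat)⟩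
  have hvD : v ∈ D := ⟨(le_sup_left : V ≤ V ⊔ T) hv, hvC⟩
  have htD : t ∈ D := ⟨(le_sup_right : T ≤ V ⊔ T) ht, htC⟩
  let v' : D.subgroupOf C := ⟨⟨v, hvC⟩, Subgroup.mem_subgroupOf.mpr hvD⟩
  let t' : D.subgroupOf C := ⟨⟨t, htC⟩, Subgroup.mem_subgroupOf.mpr htD⟩
  rcases zpowers_chain hDC v' t' with h | h
  · exfalso
    obtain ⟨k, hk⟩ := Subgroup.mem_zpowers_iff.mp h
    have hk' : t ^ k = v := by
      have := congrArg (fun z : D.subgroupOf C => ((z : C) : X)) hk
      simpa [v', t'] using this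
    have hvT : v ∈ V ⊓ T := ⟨hv, hk' ▸ T.zpow_mem ht k⟩
    rw [hVT, Subgroup.mem_bot] at hvT
    exact hv1 hvT
  · obtain ⟨k, hk⟩ := Subgroup.mem_zpowers_iff.mp h
    have hk' : v ^ k = t := by
      have := congrArg (fun z : D.subgroupOf C => ((z : C) : X)) hk
      simpa [v', t'] using this
    have htV : t ∈ V ⊓ T := ⟨hk' ▸ V.zpow_mem hv k, ht⟩
    rw [hVT, Subgroup.mem_bot] at htV
    exact htV

end Cfsg.Agent.Lib.Helper85.BG36X
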